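import Cfsg.Agent.OD.Pre
import Cfsg.Agent.H6.S32B
import Cfsg.Agent.H6.S32DA.D0
set_option autoImplicit false
set_option maxRecDepth 100000
set_option Elab.async false
set_option linter.all false
namespace CfH6.S32D
open CfH6 CfH6.D MulAction
theorem iD0 : Rng (chkInvT (fun x => fD (Nat.succ x)) S32B.il 8 5346) 0 5346 := rng_of 0 41 98 5346 (by decide +kernel)
theorem rD0 : Rng (chkRelT (fun x => fD (Nat.succ x)) S32B.rels) 0 5346 := rng_of 0 41 98 5346 (by decide +kernel)
theorem dD0 : Rng (chkId fD) 0 5346 := rng_of 0 41 98 5346 (by decide +kernel)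
theorem sD0 : Rng (chkSl fD sa sb 41 98) 9 64 := rng_of 9 0 55 64 (by decide +kernel)
end CfH6.S32D
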